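import Mathlib
import Cfsg.Agent.Lib.Helper8.OFus.Defs

/-!
# S2720 / S2721, package SD (helper64)

The irreducible self-dual case: the whole space is `A`-irreducible and `A` has no non-zero fixed
vector.  With `J : a(A) w ↦ a(A⁻¹) w`, `T = A + A⁻¹`, the `(-1)`-eigenspace `E` of `J` is
`T`-irreducible; the norm package gives `p₀` with `det (p₀(T)|E)` a non-square, the norm
equation `d d̄ c ≡ 1` (`c(A) = p₀(T)`) gives `b = d(A)`, and the spin package applies.
-/

set_option autoImplicit false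

namespace Cfsg.Agent.Lib.Helper64.OFus

open Polynomial Module
open Cfsg.Agent.Lib.Helper8.WallBasic Cfsg.Agent.Lib.Helper8.WallForm
open Cfsg.Agent.Lib.Helper8.WallRank Cfsg.Agent.Lib.Helper8.OFus
open Cfsg.Agent.Lib.Helper14 (reflLin)

universe u

/-- polynomials in `A` commute -/
theorem aeval_aeval_comm {F : Type*} [Field F] {V : Type*} [AddCommGroup V] [Module F V]
    (A : V →ₗ[F] V) (g h : F[X]) (x : V) :
    aeval A g (aeval A h x) = aeval A h (aeval A g x) := by
  rw [← aeval_mul_apply, ← aeval_mul_apply, mul_comm]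

/-- a polynomial in `A` commutes with a power of `A` -/
theorem aeval_pow_comm {F : Type*} [Field F] {V : Type*} [AddCommGroup V] [Module F V]
    (A : V →ₗ[F] V) (g : F[X]) (k : ℕ) (x : V) :
    aeval A g ((A ^ k) x) = (A ^ k) (aeval A g x) := by
  have h1 : A ^ k = aeval A (X ^ k : F[X]) := by rw [aeval_X_pow]
  rw [h1]
  exact aeval_aeval_comm A g (X ^ k) x

theorem pkgSd (hN : PkgNorm.{u}) (hS : PkgSpin.{u}) : PkgSd.{u} := by
  intro F _ _ V _ _ _ Q N A hStd hirr hfix
  classical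
  have S0 := hStd.setup
  obtain ⟨β, hβ⟩ : ∃ β : LinearMap.BilinForm F V, β = QuadraticMap.polarBilin Q := ⟨_, rfl⟩
  have S : Setup β N A := by rw [hβ]; exact S0
  have hβapp : ∀ x y, β x y = Q (x + y) - Q x - Q y := fun x y => by
    rw [hβ]
    rfl
  have hself : ∀ v : V, β v v = 2 * Q v := fun v => by
    rw [hβapp, QuadraticMap.map_add_self]
    simp only [nsmul_eq_mul, Nat.cast_ofNat]
    ring
  have hnd : ∀ x, (∀ y, β x y = 0) → x = 0 := by
    rw [hβ]
    exact hStd.nondeg.1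
  have htwo := hStd.two
  have hndT : NondegOn β ⊤ := fun x _ h => hnd x (fun y => h y Submodule.mem_top)
  have hinvT : Inv A ⊤ := hirr.2.1
  have hsd : ann A ⊤ = ann (A ^ (N - 1)) ⊤ := S.ann_self hinvT hndT
  obtain ⟨w, -, hw0⟩ := irr_exists_ne hirr.1
  have hcyc : cyc A w = ⊤ := irr_eq_cyc hirr Submodule.mem_top hw0
  have hmemcyc : ∀ y : V, y ∈ cyc A w := fun y => by rw [hcyc]; exact Submodule.mem_top
  -- the involution `J`
  obtain ⟨J, hJ⟩ := exists_cyc_map A (A ^ (N - 1)) w w (by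
    intro g hg
    have h1 : g ∈ ann A ⊤ := (irr_ann_iff hirr Submodule.mem_top hw0 g).mpr hg
    rw [hsd] at h1
    exact h1 w Submodule.mem_top)
  have hJint : ∀ (h : F[X]) (y : V), J (aeval A h y) = aeval (A ^ (N - 1)) h (J y) :=
    fun h y => cyc_map_intertwine hJ h (hmemcyc y)
  have hJJ : ∀ v, J (J v) = v := by
    intro v
    obtain ⟨g, rfl⟩ := mem_cyc.mp (hmemcyc v)
    rw [hJ, aeval_pow_eq, hJ, ← aeval_pow_eq, S.pow_inv_pow]
  have hJint' : ∀ (h : F[X]) (y : V), J (aeval (A ^ (N - 1)) h y) = aeval A h (J y) := by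
    intro h y
    have h1 := hJint h (J y)
    rw [hJJ] at h1
    rw [← h1, hJJ]
  have hJA : ∀ x, J (A x) = (A ^ (N - 1)) (J x) := by
    intro x
    have h1 := hJint X x
    rwa [aeval_X, aeval_X] at h1
  have hJA' : ∀ x, J ((A ^ (N - 1)) x) = A (J x) := by
    intro x
    have h1 := hJint' X x
    rwa [aeval_X, aeval_X] at h1
  have hJQ : ∀ v, Q (J v) = Q v := by
    intro v
    have h2 : β (J v) (J v) = β v v := by
      obtain ⟨g, rfl⟩ := mem_cyc.mp (hmemcyc v)
      rw [hJ, S.adj_aeval', S.adj_aeval, aeval_pow_eq, aeval_aeval_comm]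
    rw [hself, hself] at h2
    exact mul_left_cancel₀ htwo h2
  -- `A y = A⁻¹ y` forces `y = 0`
  have hdelta : ∀ y, A y = (A ^ (N - 1)) y → y = 0 := by
    intro y hy
    have h1 : A (A y) = y := by rw [hy, S.right_inv]
    have h2 : A (A y - y) = -(A y - y) := by rw [map_sub, h1]; abel
    have h3 := S.neg_fix h2
    have h4 : (2 : F) • (A y - y) = 0 := by
      rw [two_smul]
      nth_rewrite 1 [← h3]
      rw [h2]
      abel
    have h5 : A y - y = 0 := (smul_eq_zero.mp h4).resolve_left htwo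
    exact hfix y (sub_eq_zero.mp h5)
  -- `T = A + A⁻¹` and the `(-1)`-eigenspace of `J`
  obtain ⟨T, hTdef⟩ : ∃ T : V →ₗ[F] V, T = A + A ^ (N - 1) := ⟨_, rfl⟩
  have hT : aeval A (X + X ^ (N - 1) : F[X]) = T := by
    rw [map_add, aeval_X, aeval_X_pow, hTdef]
  have hT' : aeval (A ^ (N - 1)) (X + X ^ (N - 1) : F[X]) = T := by
    rw [map_add, aeval_X, aeval_X_pow, S.pow_inv_pow, hTdef, add_comm]
  have hTapp : ∀ x, T x = A x + (A ^ (N - 1)) x := fun x => by rw [hTdef]; rfl
  obtain ⟨E, hEdef⟩ : ∃ E : Submodule F V, E = LinearMap.ker (J + 1) := ⟨_, rfl⟩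
  have hEmem : ∀ x, x ∈ E ↔ J x = -x := by
    intro x
    rw [hEdef, LinearMap.mem_ker, LinearMap.add_apply, Module.End.one_apply]
    exact add_eq_zero_iff_eq_neg
  have hTE : Inv T E := by
    intro x hx
    rw [hEmem] at hx ⊢
    rw [hTapp, map_add, hJA, hJA', hx, map_neg, map_neg]
    abel
  have hE0 : E ≠ ⊥ := by
    intro h0
    have hJid : ∀ x, J x = x := by
      intro x
      have h1 : x - J x ∈ E := by
        rw [hEmem, map_sub, hJJ]
        abel
      rw [h0, Submodule.mem_bot] at h1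
      exact (sub_eq_zero.mp h1).symm
    apply hw0
    apply hdelta
    have h2 := hJA w
    rwa [hJid, hJid] at h2
  have hIrrE : Irr T E := by
    refine ⟨hE0, hTE, ?_⟩
    intro E' hE'E hE'T
    by_cases h0 : E' = ⊥
    · exact Or.inl h0
    · right
      apply le_antisymm hE'E
      -- `E' + A E'` is `A`-invariant, hence everything
      have hUinv : Inv A (E' ⊔ E'.map A) := by
        intro x hx
        obtain ⟨e₁, he₁, y, hy, rfl⟩ := Submodule.mem_sup.mp hx
        obtain ⟨e₂, he₂, rfl⟩ := Submodule.mem_map.mp hy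
        rw [map_add]
        have h1 : A (A e₂) = A (T e₂) - e₂ := by
          rw [hTapp, map_add, S.right_inv]
          abel
        rw [h1]
        have h2 : A e₁ + (A (T e₂) - e₂) = -e₂ + (A e₁ + A (T e₂)) := by abel
        rw [h2]
        refine Submodule.add_mem_sup (E'.neg_mem he₂) ?_
        rw [← map_add]
        exact Submodule.mem_map_of_mem (E'.add_mem he₁ (hE'T _ he₂))
      have hUtop : E' ⊔ E'.map A = ⊤ := by
        rcases hirr.2.2 _ le_top hUinv with h | h
        · exfalso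
          apply h0
          rw [eq_bot_iff, ← h]
          exact le_sup_left
        · exact h
      intro x hx
      have hxU : x ∈ E' ⊔ E'.map A := by rw [hUtop]; exact Submodule.mem_top
      obtain ⟨e₁, he₁, y, hy, rfl⟩ := Submodule.mem_sup.mp hxU
      obtain ⟨e₂, he₂, rfl⟩ := Submodule.mem_map.mp hy
      have hJe₁ := (hEmem e₁).mp (hE'E he₁)
      have hJe₂ := (hEmem e₂).mp (hE'E he₂)
      have hJx := (hEmem _).mp hx
      rw [map_add, hJe₁, hJA, hJe₂, map_neg, neg_add] at hJx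
      have h3 : A e₂ = (A ^ (N - 1)) e₂ := by
        have h4 := add_left_cancel hJx
        exact (neg_injective h4).symm
      rw [hdelta e₂ h3, map_zero, add_zero]
      exact he₁
  -- a non-square determinant on `E`
  have hchar : ringChar F ≠ 2 := by
    intro h
    apply htwo
    have h1 := (ringChar.spec F 2).mpr (by rw [h])
    exact_mod_cast h1
  obtain ⟨ν, hν⟩ := FiniteField.exists_nonsquare hchar
  obtain ⟨p₀, hp₀⟩ := hN T E hIrrE ν
  obtain ⟨c, hcdef⟩ : ∃ c : F[X], c = p₀.comp (X + X ^ (N - 1)) := ⟨_, rfl⟩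
  have hcA : aeval A c = aeval T p₀ := by rw [hcdef, aeval_comp, hT]
  have hc : c ∉ ann A ⊤ := by
    intro hcm
    apply hν
    rw [← hp₀]
    have hker : LinearMap.ker ((aeval T p₀).restrict (inv_aeval hIrrE.2.1 p₀)) ≠ ⊥ := by
      obtain ⟨e, he, he0⟩ := irr_exists_ne hE0
      intro hk
      have h1 : (⟨e, he⟩ : E) ∈
          LinearMap.ker ((aeval T p₀).restrict (inv_aeval hIrrE.2.1 p₀)) := by
        rw [LinearMap.mem_ker]
        apply Subtype.ext
        show aeval T p₀ e = 0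
        rw [← hcA]
        exact hcm e Submodule.mem_top
      rw [hk, Submodule.mem_bot] at h1
      exact he0 (congrArg Subtype.val h1)
    rw [LinearMap.det_eq_zero_iff_ker_ne_bot.mpr hker]
    exact ⟨0, by simp⟩
  have hcs : c.comp (X ^ (N - 1)) - c ∈ ann A ⊤ := by
    intro u _
    rw [map_sub, LinearMap.sub_apply, ← aeval_pow_eq, hcA, hcdef, aeval_comp, hT', sub_self]
  obtain ⟨d, hd⟩ := exists_norm_poly S hirr (fun x _ => hfix x) hsd c hc hcs
  have hd1 : ∀ x, aeval A (d * d.comp (X ^ (N - 1)) * c) x = x := by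
    intro x
    have h1 := hd x Submodule.mem_top
    rw [map_sub, LinearMap.sub_apply, map_one, Module.End.one_apply] at h1
    exact sub_eq_zero.mp h1
  -- the maps `b`, `b'`
  obtain ⟨b, hbdef⟩ : ∃ b : V →ₗ[F] V, b = aeval A d := ⟨_, rfl⟩
  obtain ⟨b', hb'def⟩ : ∃ b' : V →ₗ[F] V, b' = aeval A (d.comp (X ^ (N - 1)) * c) := ⟨_, rfl⟩
  have hbb' : ∀ v, b (b' v) = v := by
    intro v
    rw [hbdef, hb'def, ← aeval_mul_apply, ← mul_assoc]
    exact hd1 v
  have hb'b : ∀ v, b' (b v) = v := by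
    intro v
    rw [hbdef, hb'def, ← aeval_mul_apply]
    have h1 : d.comp (X ^ (N - 1)) * c * d = d * d.comp (X ^ (N - 1)) * c := by ring
    rw [h1]
    exact hd1 v
  have hJbJ : ∀ v, J (b (J v)) = aeval (A ^ (N - 1)) d v := by
    intro v
    rw [hbdef, hJint, hJJ]
  have hadj : ∀ x y, QuadraticMap.polarBilin Q (b x) y =
      QuadraticMap.polarBilin Q x (J (b (J y))) := by
    intro x y
    rw [hJbJ, ← hβ, hbdef]
    exact S.adj_aeval d x y
  have hcomm : ∀ v, b (J (b (J v))) = J (b (J (b v))) := by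
    intro v
    rw [hJbJ, hJbJ, hbdef, aeval_pow_eq, aeval_aeval_comm]
  have hcomp : ∀ x, (J ∘ₗ b ∘ₗ J ∘ₗ b) x = aeval A (d.comp (X ^ (N - 1)) * d) x := by
    intro x
    simp only [LinearMap.comp_apply]
    rw [hJbJ, hbdef, aeval_pow_eq, aeval_mul_apply]
  have hE : ∀ x ∈ LinearMap.ker (J + 1), (J ∘ₗ b ∘ₗ J ∘ₗ b) x ∈ LinearMap.ker (J + 1) := by
    intro x hx
    rw [← hEdef] at hx ⊢
    rw [hEmem] at hx ⊢
    simp only [LinearMap.comp_apply]
    rw [hJbJ, hJint', hbdef, hJint, hx, map_neg, map_neg, aeval_pow_eq, aeval_aeval_comm]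
  have hdet : ¬ IsSquare (LinearMap.det ((J ∘ₗ b ∘ₗ J ∘ₗ b).restrict hE)) := by
    rintro ⟨s, hs⟩
    apply hν
    have hmul : ((J ∘ₗ b ∘ₗ J ∘ₗ b).restrict hE) *
        (hEdef ▸ (aeval T p₀).restrict (inv_aeval hIrrE.2.1 p₀)) = 1 := by
      subst hEdef
      apply LinearMap.ext
      intro x
      apply Subtype.ext
      rw [Module.End.mul_apply, LinearMap.restrict_apply, Module.End.one_apply]
      show (J ∘ₗ b ∘ₗ J ∘ₗ b) (aeval T p₀ (x : V)) = (x : V)
      rw [hcomp, ← hcA, ← aeval_mul_apply]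
      have h1 : d.comp (X ^ (N - 1)) * d * c = d * d.comp (X ^ (N - 1)) * c := by ring
      rw [h1]
      exact hd1 _
    have hdetmul := congrArg LinearMap.det hmul
    rw [map_mul, map_one] at hdetmul
    have hp₀' : LinearMap.det (hEdef ▸ (aeval T p₀).restrict (inv_aeval hIrrE.2.1 p₀)) = ν := by
      subst hEdef
      exact hp₀
    rw [hp₀', hs] at hdetmul
    have hs0 : s ≠ 0 := by
      rintro rfl
      simp at hdetmul
    refine ⟨s⁻¹, ?_⟩
    field_simp
    linear_combination hdetmul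
  obtain ⟨l, hl1, hl2, hl3, hl4⟩ :=
    hS Q htwo hStd.nondeg J b b' hJJ hJQ hbb' hb'b hadj hcomm hE hdet
  refine ⟨l, hl1, hl2, hl3, ?_⟩
  intro v
  rw [hl4]
  simp only [LinearMap.comp_apply]
  rw [hJA, hb'def, aeval_pow_comm, hJA', hbdef, aeval_comm_apply]

end Cfsg.Agent.Lib.Helper64.OFus
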